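import Cfsg.Agent.Lib.Involution.SECounting
import Cfsg.Agent.Lib.Coprime.Abelian
import Cfsg.Agent.S0215
import Cfsg.Agent.S0065

/-!
A perfect group of automorphisms centralizing a strongly embedded subgroup of a group with trivial
odd core fixes an involution outside that subgroup.
-/

set_option autoImplicit false
set_option linter.style.haveILetI false

namespace Cfsg.Agent.Lib.StdSub

open Subgroup Cfsg.Agent.Lib.Involution

variable {L : Type*} [Group L] [Finite L] {H : Subgroup L}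

/-- A Sylow 2-subgroup containing an involution that is not isolated contains a commuting pair. -/
theorem exists_commuting_pair {z : L} (hz : orderOf z = 2) {P : Sylow 2 L} (hzP : z ∈ P)
    {g : L} (hgP : g * z * g⁻¹ ∈ P) (hg : g * z * g⁻¹ ≠ z) :
    ∃ c : L, orderOf c = 2 ∧ Commute c z ∧ Commute c (g * z * g⁻¹) := by
  haveI : Fact (Nat.Prime 2) := ⟨Nat.prime_two⟩
  haveI := P.2.isNilpotent
  have hne : Nontrivial ↥(P : Subgroup L) :=
    ⟨⟨⟨z, hzP⟩, 1, fun h => ne_one hz (congrArg Subtype.val h)⟩⟩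
  haveI := P.2.center_nontrivial
  obtain ⟨c, hc⟩ := exists_prime_orderOf_dvd_card' (G := ↥(center ↥(P : Subgroup L))) 2 (by
    obtain ⟨n, hn0, hn⟩ := (IsPGroup.nontrivial_iff_card (P.2.to_subgroup (center ↥(P : Subgroup L)))).1 inferInstance
    exact hn ▸ dvd_pow_self 2 hn0.ne')
  refine ⟨((c : ↥(P : Subgroup L)) : L), by rw [orderOf_coe, orderOf_coe, hc], ?_, ?_⟩
  · exact (congrArg Subtype.val (mem_center_iff.1 c.2 ⟨z, hzP⟩)).symm
  · exact (congrArg Subtype.val (mem_center_iff.1 c.2 ⟨_, hgP⟩)).symm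

/-- Two commuting involutions in a strongly embedded subgroup. -/
theorem se_exists_commuting (hH : Cfsg.IsStronglyEmbedded H)
    (hodd : ∀ N : Subgroup L, N.Normal → Odd (Nat.card N) → N = ⊥) :
    ∃ z c : L, orderOf z = 2 ∧ orderOf c = 2 ∧ z ∈ H ∧ c ∈ H ∧ Commute z c ∧ z ≠ c := by
  haveI : Fact (Nat.Prime 2) := ⟨Nat.prime_two⟩
  obtain ⟨⟨z, hzH⟩, hz⟩ := exists_involution_of_even hH.2.1
  rw [orderOf_mk] at hz
  have hzp : IsPGroup 2 ↥(zpowers z) := IsPGroup.of_card (n := 1) (by rw [Nat.card_zpowers, hz, pow_one])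
  obtain ⟨P, hP⟩ := hzp.exists_le_sylow
  have hzP : z ∈ P := hP (mem_zpowers z)
  obtain ⟨g, hgP, hg⟩ : ∃ g, g * z * g⁻¹ ∈ P ∧ g * z * g⁻¹ ≠ z := by
    by_contra h
    push Not at h
    obtain ⟨N, hN, hNodd, hNz⟩ := S0215.result P z hz hzP h
    have hN1 := hodd N hN hNodd
    refine hH.1 ((Subgroup.eq_top_iff' H).2 fun x => se_centralizer hH hz hzH ?_)
    have h1 := hNz x
    rw [hN1, mem_bot, mul_inv_eq_one, mul_inv_eq_iff_eq_mul] at h1
    exact h1.symm
  obtain ⟨c, hc, hcz, hcw⟩ := exists_commuting_pair hz hzP hgP hg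
  have hcH : c ∈ H := se_centralizer hH hz hzH hcz
  by_cases he : c = z
  · refine ⟨c, g * z * g⁻¹, hc, (orderOf_conj g z).trans hz, hcH, ?_, hcw, fun h => hg (h ▸ he)⟩
    exact se_centralizer hH hc hcH hcw.symm
  · exact ⟨z, c, hz, hc, hzH, hcH, hcz.symm, fun h => he h.symm⟩

/-- The two-point stabilizer of `H` and `uH`. -/
abbrev two (H : Subgroup L) (u : L) : Subgroup L := H ⊓ H.map (MulAut.conj u).toMonoidHom

omit [Finite L] in
lemma mem_two {u x : L} (hu : orderOf u = 2) : x ∈ two H u ↔ x ∈ H ∧ u * x * u ∈ H := by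
  rw [mem_inf, mem_map_conj, inv_self hu]

omit [Finite L] in
lemma normalizes_two [Finite L] {u : L} (hu : orderOf u = 2) : u ∈ normalizer (two H u : Set L) := by
  refine mem_normalizer_fintype fun x hx => ?_
  show u * x * u⁻¹ ∈ two H u
  obtain ⟨h1, h2⟩ := (mem_two hu).1 hx
  rw [inv_self hu, mem_two hu]
  refine ⟨h2, ?_⟩
  have e : u * (u * x * u) * u = x := by
    calc u * (u * x * u) * u = (u * u) * x * (u * u) := by group
      _ = x := by rw [mul_self hu, one_mul, mul_one]
  rw [e]; exact h1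

/-- An involution swapping two points fixes no point fixed by their common stabilizer. -/
theorem no_fixed_of_swap (hH : Cfsg.IsStronglyEmbedded H)
    (hodd : ∀ N : Subgroup L, N.Normal → Odd (Nat.card N) → N = ⊥) {u : L} (hu : orderOf u = 2)
    (huH : u ∉ H) {g : L} (hug : g⁻¹ * u * g ∈ H) (hD : ∀ d ∈ two H u, g⁻¹ * d * g ∈ H) : False := by
  obtain ⟨z, c, hz, hc, hzH, hcH, hzc, hne⟩ := se_exists_commuting hH hodd
  let φ : SwapInv H u → {t : L // orderOf t = 2 ∧ t ∈ H} := fun w =>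
    ⟨g⁻¹ * w.1 * g, by
      rw [show g⁻¹ * w.1 * g = g⁻¹ * w.1 * (g⁻¹)⁻¹ by group, orderOf_conj]; exact w.2.1, by
      have h1 := hD _ (swap_elem hu w.2.1 w.2.2).1
      have h2 := mul_mem hug h1
      rw [show g⁻¹ * u * g * (g⁻¹ * (u * w.1) * g) = g⁻¹ * (u * u * w.1) * g by group, mul_self hu,
        one_mul] at h2
      exact h2⟩
  have hinj : Function.Injective φ := fun w w' h => Subtype.ext (by
    have := congrArg Subtype.val h
    exact mul_left_cancel (mul_right_cancel this))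
  have hsurj := (hinj.bijective_of_nat_card_le (swap_eq hH u huH).ge).2
  obtain ⟨w1, hw1⟩ := hsurj ⟨z, hz, hzH⟩
  obtain ⟨w2, hw2⟩ := hsurj ⟨c, hc, hcH⟩
  have e1 : g⁻¹ * w1.1 * g = z := congrArg Subtype.val hw1
  have e2 : g⁻¹ * w2.1 * g = c := congrArg Subtype.val hw2
  have hzc2 : orderOf (z * c) = 2 := orderOf_two_of
    (by
      calc z * c * (z * c) = z * (c * z) * c := by group
        _ = z * (z * c) * c := by rw [hzc.eq]
        _ = (z * z) * (c * c) := by group
        _ = 1 := by rw [mul_self hz, mul_self hc, one_mul])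
    (fun h => hne (by rw [mul_eq_one_iff_eq_inv, inv_self hc] at h; exact h))
  have hx2 : orderOf (g * (z * c) * g⁻¹) = 2 := (orderOf_conj g _).trans hzc2
  have hxH : g * (z * c) * g⁻¹ ∈ H := by
    have e : g * (z * c) * g⁻¹ = (u⁻¹ * w1.1)⁻¹ * (u⁻¹ * w2.1) := by
      rw [← e1, ← e2, mul_inv_rev, inv_inv, inv_self w1.2.1]
      group
    rw [e]
    exact mul_mem (inv_mem w1.2.2) w2.2.2
  have hgH : g ∈ H := se_mem hH hx2 hxH (by
    rw [show g⁻¹ * (g * (z * c) * g⁻¹) * g = z * c by group]; exact mul_mem hzH hcH)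
  refine huH ?_
  have := mul_mem (mul_mem hgH hug) (inv_mem hgH)
  rwa [show g * (g⁻¹ * u * g) * g⁻¹ = u by group] at this

/-- No involution normalizing the stabilizer fixes one of its fixed points. -/
theorem no_fixed (hH : Cfsg.IsStronglyEmbedded H)
    (hodd : ∀ N : Subgroup L, N.Normal → Odd (Nat.card N) → N = ⊥) {u : L} (hu : orderOf u = 2)
    (huH : u ∉ H) {v : L} (hv : orderOf v = 2) (hvN : v ∈ normalizer (two H u : Set L)) {g : L}
    (hvg : g⁻¹ * v * g ∈ H) (hD : ∀ d ∈ two H u, g⁻¹ * d * g ∈ H) : False := by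
  by_cases hug : g⁻¹ * u * g ∈ H
  · exact no_fixed_of_swap hH hodd hu huH hug hD
  have ho : ∀ x : L, orderOf (g⁻¹ * x * g) = orderOf x := fun x => by
    rw [show g⁻¹ * x * g = g⁻¹ * x * (g⁻¹)⁻¹ by group, orderOf_conj]
  have h1 := se_odd_prod hH ((ho v).trans hv) hvg ((ho u).trans hu) hug
  rw [show g⁻¹ * v * g * (g⁻¹ * u * g) = g⁻¹ * (v * u) * g by group, ho] at h1
  obtain ⟨k, hk⟩ := conj_of_odd hv hu h1
  set d := (v * u) ^ k with hd
  have hdN : d ∈ normalizer (two H u : Set L) := pow_mem (mul_mem hvN (normalizes_two hu)) k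
  refine no_fixed_of_swap hH hodd hu huH (g := d * g) ?_ fun x hx => ?_
  · rw [← hk]
    convert hvg using 1
    group
  · have h2 := hD _ ((mem_normalizer_iff''.1 hdN x).1 hx)
    convert h2 using 1
    group

/-- The stabilizer of a maximal pair is contained in no third point stabilizer. -/
theorem unique_coset (hH : Cfsg.IsStronglyEmbedded H)
    (hodd : ∀ N : Subgroup L, N.Normal → Odd (Nat.card N) → N = ⊥) {u : L} (hu : orderOf u = 2)
    (huH : u ∉ H) (hmax : ∀ v : L, orderOf v = 2 → v ∉ H → Nat.card (two H v) ≤ Nat.card (two H u))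
    {g : L} (hg : g ∉ H) (hD : ∀ d ∈ two H u, g⁻¹ * d * g ∈ H) : u⁻¹ * g ∈ H := by
  haveI : Fact (Nat.Prime 2) := ⟨Nat.prime_two⟩
  set D := two H u with hDdef
  set Y := normalizer (D : Set L) with hY
  have huY : u ∈ Y := normalizes_two hu
  have hno : ∀ {v : L}, orderOf v = 2 → v ∈ Y → v ∉ H := fun {v} hv hvY hvH =>
    no_fixed hH hodd hu huH hv hvY (g := 1) (by simpa using hvH)
      (fun d hd => by simpa using (mem_inf.1 hd).1)
  -- no four-group in `Y`
  have hcomm : ∀ {v w : L}, orderOf v = 2 → orderOf w = 2 → v ∈ Y → w ∈ Y → Commute v w → v = w := by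
    intro v w hv hw hvY hwY hvw
    by_contra hne
    obtain ⟨⟨z, hzH⟩, hz⟩ := exists_involution_of_even hH.2.1
    rw [orderOf_mk] at hz
    obtain ⟨r, hr⟩ := isConj_iff.1 (se_all_conj hH z v hz hv)
    have hvr : r⁻¹ * v * r ∈ H := by rw [← hr]; simpa [mul_assoc] using hzH
    have hcent : ∀ {a x : L}, orderOf a = 2 → r⁻¹ * a * r ∈ H → Commute x a → r⁻¹ * x * r ∈ H := by
      intro a x ha har hxa
      refine se_centralizer hH (g := r⁻¹ * x * r) ?_ har ?_
      · rw [show r⁻¹ * a * r = r⁻¹ * a * (r⁻¹)⁻¹ by group, orderOf_conj, ha]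
      · have := hxa.map (MulAut.conj r⁻¹).toMonoidHom
        simpa using this
    have hwr : r⁻¹ * w * r ∈ H := hcent hv hvr hvw.symm
    have hvw1 : v * w ≠ 1 := fun h => hne (by rw [mul_eq_one_iff_eq_inv, inv_self hw] at h; exact h)
    have hvwvw : v * w * (v * w) = 1 := by
      calc v * w * (v * w) = v * (w * v) * w := by group
        _ = v * (v * w) * w := by rw [hvw.eq]
        _ = (v * v) * (w * w) := by group
        _ = 1 := by rw [mul_self hv, mul_self hw, one_mul]
    have hvwo : orderOf (v * w) = 2 := orderOf_two_of hvwvw hvw1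
    have hvwr : r⁻¹ * (v * w) * r ∈ H := by
      have := mul_mem hvr hwr
      rwa [show r⁻¹ * v * r * (r⁻¹ * w * r) = r⁻¹ * (v * w) * r by group] at this
    have hvv := mul_self hv
    have hww := mul_self hw
    have hwv : w * v = v * w := hvw.symm.eq
    have hv1 : v * (v * w) = w := mul_mul_self_left hv w
    have hw1 : w * (v * w) = v := by rw [← hwv, ← mul_assoc, hww, one_mul]
    have h1v : v * w * v = w := by rw [mul_assoc, hwv, hv1]
    have h1w : v * w * w = v := by rw [mul_assoc, hww, mul_one]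
    let B : Subgroup L :=
      { carrier := {x | x = 1 ∨ x = v ∨ x = w ∨ x = v * w}
        mul_mem' := by
          rintro a b (rfl | rfl | rfl | rfl) (rfl | rfl | rfl | rfl) <;>
            simp [hvv, hww, hwv, hv1, hw1, h1v, h1w, hvwvw]
        one_mem' := Or.inl rfl
        inv_mem' := by
          rintro a (rfl | rfl | rfl | rfl) <;>
            simp [inv_self hv, inv_self hw, inv_self hvwo] }
    have hB4 : Nat.card B = 2 ^ 2 := by
      have e : (B : Set L) = {1, v, w, v * w} := by ext x; simp [B]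
      rw [← SetLike.coe_sort_coe, Nat.card_coe_set_eq, e]
      have n1 : (1 : L) ∉ ({v, w, v * w} : Set L) := by
        simp [(ne_one hv).symm, (ne_one hw).symm, hvw1.symm]
      have n2 : v ∉ ({w, v * w} : Set L) := by simp [hne, ne_one hw]
      have n3 : w ≠ v * w := fun h => ne_one hv (right_eq_mul.1 h)
      rw [Set.ncard_insert_of_notMem n1, Set.ncard_insert_of_notMem n2, Set.ncard_pair n3]
      norm_num
    have hBY : B ≤ Y := by
      rintro x (rfl | rfl | rfl | rfl)
      exacts [one_mem _, hvY, hwY, mul_mem hvY hwY]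
    have hBc : ∀ x ∈ B, ∀ y ∈ B, x * y = y * x := by
      rintro x (rfl | rfl | rfl | rfl) y (rfl | rfl | rfl | rfl) <;>
        simp [hwv, hv1, hw1, h1v, h1w]
    have hBe : ∀ x ∈ B, x ^ 2 = 1 := by
      rintro x (rfl | rfl | rfl | rfl) <;> simp [pow_two, hvv, hww, hvwvw]
    have hDodd : Odd (Nat.card D) := hH.2.2 u huH
    have hgen := Coprime.fixGen_eq_of_elementary Nat.prime_two hBc hBe hB4 hBY
      (by rw [hB4]; exact (Nat.coprime_two_left.2 hDodd).pow_left 2)
    let R : Subgroup L := H.map (MulAut.conj r).toMonoidHom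
    have hle : D ≤ R := by
      rw [← hgen, Coprime.fixGen]
      refine iSup₂_le fun a ha x hx => mem_map_conj.2 ?_
      have hxa : Commute x a := mem_centralizer_singleton_iff.1 hx.2
      rcases ha.1 with rfl | rfl | rfl | rfl
      · exact absurd rfl ha.2
      · exact hcent hv hvr hxa
      · exact hcent hw hwr hxa
      · exact hcent hvwo hvwr hxa
    exact no_fixed hH hodd hu huH hv hvY hvr fun d hd => mem_map_conj.1 (hle hd)
  -- `u` is isolated in `Y`
  let uY : ↥Y := ⟨u, huY⟩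
  have huY2 : orderOf uY = 2 := by rw [← orderOf_coe]; exact hu
  have hup : IsPGroup 2 ↥(zpowers uY) := IsPGroup.of_card (n := 1) (by rw [Nat.card_zpowers, huY2, pow_one])
  obtain ⟨P, hP⟩ := hup.exists_le_sylow
  have huP : uY ∈ P := hP (mem_zpowers _)
  have hiso : ∀ y : ↥Y, y * uY * y⁻¹ ∈ P → y * uY * y⁻¹ = uY := by
    intro y hy
    by_contra hne
    obtain ⟨c, hc, hc1, hc2⟩ := exists_commuting_pair huY2 huP hy hne
    have hcv : ∀ a b : ↥Y, orderOf a = 2 → orderOf b = 2 → Commute a b → a = b := fun a b ha hb hab =>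
      Subtype.ext (hcomm (by rw [orderOf_coe]; exact ha) (by rw [orderOf_coe]; exact hb) a.2 b.2
        (congrArg Subtype.val hab.eq))
    have e1 := hcv c uY hc huY2 hc1
    have e2 := hcv c _ hc ((orderOf_conj y uY).trans huY2) hc2
    exact hne (e2.symm.trans e1)
  obtain ⟨N, hN, hNodd, hNu⟩ := S0215.result P uY huY2 huP hiso
  -- `N ≤ H`
  have huN : uY ∉ N := fun h => by
    have := Subgroup.orderOf_dvd_natCard N h
    rw [huY2] at this
    exact Nat.not_even_iff_odd.2 hNodd (even_iff_two_dvd.2 this)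
  have hswap : ∀ {x : L}, x ∉ H → (∀ d ∈ D, x⁻¹ * d * x ∈ H) → ∃ n ∈ N, x⁻¹ * (u * (n : L)) ∈ H := by
    intro x hx hxD
    obtain ⟨⟨z, hzH⟩, hz⟩ := exists_involution_of_even hH.2.1
    rw [orderOf_mk] at hz
    have hne : Nonempty (SwapInv H x) := by
      refine (Nat.card_pos_iff.1 ?_).1
      rw [swap_eq hH x hx]
      haveI : Nonempty {t : L // orderOf t = 2 ∧ t ∈ H} := ⟨⟨z, hz, hzH⟩⟩
      exact Nat.card_pos
    obtain ⟨w, hw, hxw⟩ := hne
    have hwH : w ∉ H := fun h => hx (by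
      have := mul_mem h (inv_mem hxw)
      rwa [show w * (x⁻¹ * w)⁻¹ = x by group] at this)
    have hle : D ≤ two H w := fun d hd => (mem_two hw).2 ⟨(mem_inf.1 hd).1, by
      have := mul_mem (mul_mem (inv_mem hxw) (hxD d hd)) hxw
      rw [show (x⁻¹ * w)⁻¹ * (x⁻¹ * d * x) * (x⁻¹ * w) = w⁻¹ * d * w by group, inv_self hw] at this
      exact this⟩
    have heq : D = two H w := eq_of_le_of_card_ge hle (hmax w hw hwH)
    have hwY : w ∈ Y := by rw [hY, heq]; exact normalizes_two hw
    let wY : ↥Y := ⟨w, hwY⟩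
    have hwY2 : orderOf wY = 2 := by rw [← orderOf_coe]; exact hw
    have hodd' : Odd (orderOf (uY * wY)) := by
      by_contra he
      obtain ⟨c, hc, hcz, hc1, hc2⟩ := exists_involution_commute huY2 hwY2 he
      have hcv : ∀ a b : ↥Y, orderOf a = 2 → orderOf b = 2 → Commute a b → a = b := fun a b ha hb hab =>
        Subtype.ext (hcomm (by rw [orderOf_coe]; exact ha) (by rw [orderOf_coe]; exact hb) a.2 b.2
          (congrArg Subtype.val hab.eq))
      have e1 := hcv c uY hc huY2 hc1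
      have e2 := hcv c wY hc hwY2 hc2
      rw [← e2, e1, mul_self huY2, orderOf_one] at he
      exact he odd_one
    obtain ⟨y, hy⟩ := isConj_iff.1 (isConj_of_odd huY2 hwY2 hodd')
    refine ⟨uY * y * uY⁻¹ * y⁻¹, hNu y, ?_⟩
    have e : u * ((uY * y * uY⁻¹ * y⁻¹ : ↥Y) : L) = w := by
      have h1 : uY * (uY * y * uY⁻¹ * y⁻¹) = wY := by
        rw [inv_self huY2, mul_assoc, mul_assoc, mul_mul_self_left huY2, ← mul_assoc, hy]
      exact congrArg Subtype.val h1
    rw [e]; exact hxw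
  have hNH : ∀ n ∈ N, (n : L) ∈ H := by
    intro n hn
    by_contra hnH
    obtain ⟨n1, hn1, hh⟩ := hswap hnH (fun d hd => (mem_inf.1 ((mem_normalizer_iff''.1 n.2 d).1 hd)).1)
    set h : ↥Y := n⁻¹ * (uY * n1) with hhdef
    have hq : QuotientGroup.mk' N h = QuotientGroup.mk' N uY := by
      rw [hhdef, map_mul, map_mul, map_inv]
      simp [(QuotientGroup.eq_one_iff n).2 hn, (QuotientGroup.eq_one_iff n1).2 hn1]
    have hq2 : orderOf (QuotientGroup.mk' N uY) = 2 := by
      refine orderOf_two_of ?_ fun h1 => huN ((QuotientGroup.eq_one_iff uY).1 h1)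
      rw [← map_mul, mul_self huY2, map_one]
    have h2 : 2 ∣ orderOf h := by
      rw [← hq2, ← hq]; exact orderOf_map_dvd _ h
    obtain ⟨k, hk⟩ := h2
    have hk0 : k ≠ 0 := fun hk0 => by rw [hk0, mul_zero] at hk; exact (orderOf_pos h).ne' hk
    have hv : orderOf (h ^ k) = 2 := by
      rw [orderOf_pow' h hk0, hk, Nat.gcd_eq_right (dvd_mul_left k 2), Nat.mul_div_cancel _ (Nat.pos_of_ne_zero hk0)]
    refine hno (v := ((h ^ k : ↥Y) : L)) (by rw [orderOf_coe]; exact hv) (h ^ k).2 ?_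
    rw [SubgroupClass.coe_pow]
    exact pow_mem hh k
  obtain ⟨n, hn, hh⟩ := hswap hg hD
  have h3 := mul_mem (hNH n hn) (inv_mem hh)
  rw [show (n : L) * (g⁻¹ * (u * n))⁻¹ = u⁻¹ * g by group] at h3
  exact h3

/-- A perfect group of operators centralizing a strongly embedded subgroup fixes an element
outside it. -/
theorem exists_fixed_outside {A : Type*} [Group A] (hA : commutator A = ⊤) (φ : A →* MulAut L)
    (hH : Cfsg.IsStronglyEmbedded H)
    (hodd : ∀ N : Subgroup L, N.Normal → Odd (Nat.card N) → N = ⊥)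
    (hfix : ∀ a : A, ∀ h ∈ H, φ a h = h) : ∃ u : L, u ∉ H ∧ ∀ a : A, φ a u = u := by
  obtain ⟨u0, hu0, hu0H⟩ := se_exists_outside hH
  haveI : Nonempty {u : L // orderOf u = 2 ∧ u ∉ H} := ⟨⟨u0, hu0, hu0H⟩⟩
  obtain ⟨⟨u, hu, huH⟩, hmax⟩ :=
    Finite.exists_max fun u : {u : L // orderOf u = 2 ∧ u ∉ H} => Nat.card (two H u.1)
  have himg : ∀ a : A, ∀ x : L, φ a x ∈ H → x ∈ H := fun a x hx => by
    have h1 : φ a⁻¹ (φ a x) = φ a x := hfix _ _ hx
    rw [← MulAut.mul_apply, ← map_mul, inv_mul_cancel, map_one, MulAut.one_apply] at h1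
    exact h1 ▸ hx
  have hc : ∀ a : A, u⁻¹ * φ a u ∈ H := by
    intro a
    refine unique_coset hH hodd hu huH (fun v hv hvH => hmax ⟨v, hv, hvH⟩) (fun h => huH (himg a u h)) ?_
    intro d hd
    obtain ⟨h1, h2⟩ := (mem_two hu).1 hd
    have h3 : φ a (u * d * u) = u * d * u := hfix a _ h2
    rw [map_mul, map_mul, hfix a d h1] at h3
    have hinv : (φ a u)⁻¹ = φ a u := by rw [← map_inv, inv_self hu]
    rw [hinv, h3]; exact h2
  let c : A → L := fun a => u⁻¹ * φ a u
  have hmul : ∀ a b : A, c (a * b) = c a * c b := fun a b => by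
    have h1 : φ b u = u * c b := by simp [c]
    show u⁻¹ * φ (a * b) u = _
    rw [map_mul, MulAut.mul_apply, h1, map_mul, hfix a _ (hc b)]
    simp [c, mul_assoc]
  have hinv : ∀ a : A, u * c a * u⁻¹ = (c a)⁻¹ := fun a => by
    simp only [c, mul_inv_rev, inv_inv, inv_self hu, mul_mul_self_left hu]
    rw [show (φ a u)⁻¹ = φ a u by rw [← map_inv, inv_self hu]]
  have hab : ∀ a b : A, c a * c b = c b * c a := fun a b => by
    have h1 := hinv (a * b)
    rw [hmul, mul_inv_rev] at h1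
    have h2 : u * (c a * c b) * u⁻¹ = (c a)⁻¹ * (c b)⁻¹ := by rw [← hinv a, ← hinv b]; group
    rw [h2] at h1
    have := congrArg (·⁻¹) h1
    simp only [mul_inv_rev, inv_inv] at this
    exact this.symm
  let f : A →* L := { toFun := c, map_one' := by simp [c], map_mul' := hmul }
  have hker : commutator A ≤ f.ker := by
    rw [commutator_def, commutator_le]
    intro a _ b _
    rw [MonoidHom.mem_ker, map_commutatorElement, commutatorElement_eq_one_iff_mul_comm]
    exact hab a b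
  rw [hA] at hker
  refine ⟨u, huH, fun a => ?_⟩
  have h1 : u⁻¹ * φ a u = 1 := hker (mem_top a)
  exact (inv_mul_eq_one.1 h1).symm

end Cfsg.Agent.Lib.StdSub
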