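import Cfsg.Agent.Lib.StdSub.SEFix
import Cfsg.Agent.Lib.Components.StandardCore
import Cfsg.Agent.Lib.Components.Orbit
import Cfsg.Agent.Lib.LocalFusion.Balance
import Mathlib.GroupTheory.Perm.Cycle.Type

/-!
A standard subgroup of a group with trivial odd core is normal, or is a diagonal in a layer with two
components, or lies in a simple layer.
-/

set_option autoImplicit false
set_option linter.style.haveILetI false

namespace Cfsg.Agent.Lib.StdSub

open Subgroup Cfsg.Agent.Lib.Components
open scoped commutatorElement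

variable {G : Type*} [Group G]

/-- An involutive map fixes as many points as there are, modulo 2. -/
theorem card_fixed_modEq {α : Type*} [Finite α] (f : α → α) (hf : Function.Involutive f) :
    Nat.card α ≡ Nat.card {x : α // f x = x} [MOD 2] := by
  classical
  haveI := Fintype.ofFinite α
  haveI : Fact (Nat.Prime 2) := ⟨Nat.prime_two⟩
  have h := Equiv.Perm.card_fixedPoints_modEq (f := (f : Function.End α)) (p := 2) (n := 1)
    (by funext x; exact hf x)
  rw [Nat.card_eq_fintype_card, Nat.card_eq_fintype_card]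
  refine h.trans ?_
  exact congrArg (· % 2) (Fintype.card_congr (Equiv.refl _))

/-- An involution normalizing a subgroup of even order centralizes an involution in it. -/
theorem exists_fixed_involution [Finite G] {M : Subgroup G} {t : G} (ht : orderOf t = 2)
    (htM : t ∈ normalizer (M : Set G)) (hM : Even (Nat.card M)) :
    ∃ w ∈ M, orderOf w = 2 ∧ w * t = t * w := by
  classical
  have htt : t * t = 1 := Involution.mul_self ht
  let T := {x : ↥M // x⁻¹ = x}
  have h1 : 2 ∣ Nat.card T := by
    have h := card_fixed_modEq (fun x : ↥M => x⁻¹) inv_involutive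
    exact (Nat.modEq_zero_iff_dvd).1 (h.symm.trans ((Nat.modEq_zero_iff_dvd).2 (even_iff_two_dvd.1 hM)))
  let f : T → T := fun x => ⟨⟨t * ((x.1 : ↥M) : G) * t⁻¹, (mem_normalizer_iff.1 htM _).1 x.1.2⟩, by
    apply Subtype.ext
    show (t * ((x.1 : ↥M) : G) * t⁻¹)⁻¹ = t * ((x.1 : ↥M) : G) * t⁻¹
    have : ((x.1 : ↥M) : G)⁻¹ = x.1 := congrArg Subtype.val x.2
    rw [mul_inv_rev, mul_inv_rev, inv_inv, this, mul_assoc]⟩
  have hf : Function.Involutive f := fun x => Subtype.ext (Subtype.ext (by
    show t * (t * ((x.1 : ↥M) : G) * t⁻¹) * t⁻¹ = x.1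
    rw [Involution.inv_self ht]
    calc t * (t * ((x.1 : ↥M) : G) * t) * t = (t * t) * ((x.1 : ↥M) : G) * (t * t) := by group
      _ = x.1 := by rw [htt, one_mul, mul_one]))
  have h2 : 2 ∣ Nat.card {x : T // f x = x} :=
    (Nat.modEq_zero_iff_dvd).1 ((card_fixed_modEq f hf).symm.trans ((Nat.modEq_zero_iff_dvd).2 h1))
  let o : {x : T // f x = x} := ⟨⟨1, inv_one⟩, Subtype.ext (Subtype.ext (by
    show t * ((1 : ↥M) : G) * t⁻¹ = ((1 : ↥M) : G)
    simp))⟩
  haveI : Nonempty {x : T // f x = x} := ⟨o⟩
  have h3 : 1 < Nat.card {x : T // f x = x} := by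
    have := Nat.le_of_dvd Nat.card_pos h2
    omega
  haveI := Finite.one_lt_card_iff_nontrivial.1 h3
  obtain ⟨⟨⟨⟨w, hw⟩, hwi⟩, hwf⟩, hne⟩ := exists_ne o
  have hwi' : w⁻¹ = w := congrArg Subtype.val hwi
  refine ⟨w, hw, Involution.orderOf_two_of ?_ ?_, ?_⟩
  · nth_rewrite 1 [← hwi']
    exact inv_mul_cancel w
  · rintro rfl
    exact hne (Subtype.ext (Subtype.ext (Subtype.ext rfl)))
  · have h4 : t * w * t⁻¹ = w := congrArg (fun z : T => ((z.1 : ↥M) : G)) hwf
    calc w * t = t * w * t⁻¹ * t := by rw [h4]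
      _ = t * w := by group

/-- A quasisimple subgroup not inside `M` commutes with the part of `M` normalizing it. -/
theorem comm_of_not_le {A X M : Subgroup G} (hA : Cfsg.IsQuasisimple ↥A)
    (hX : X ≤ normalizer (A : Set G)) (hXM : X ≤ M) (hAM : A ≤ normalizer (M : Set G)) (hne : ¬ A ≤ M) :
    ⁅A, X⁆ = ⊥ := by
  refine commutator_eq_bot_of_perfect (isQuasisimple_perfect hA) ?_
  have hsub : ⁅X, A⁆ ≤ M ⊓ A :=
    le_inf ((commutator_mono hXM le_rfl).trans (le_normalizer_iff_commutator_le_left.1 hAM))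
      (le_normalizer_iff_commutator_le_right.1 hX)
  rcases qs_inter_subnormal hA (H := M) (normal_subgroupOf_of_le_normalizer hAM).isSubnormal with h | h
  · exact absurd h hne
  · exact commutator_eq_bot_mono h hsub le_rfl

variable [Finite G]

/-- The trichotomy. -/
theorem trichotomy (A : Subgroup G) (hA : Cfsg.IsStandardSubgroup A) (hO : Cfsg.oddCore G = ⊥) (t : G)
    (ht : orderOf t = 2) (htA : t ∈ Subgroup.centralizer (A : Set G)) :
    A.Normal ∨ (∃ X : Subgroup G, IsSimpleGroup ↥X ∧ ¬ IsMulCommutative ↥X ∧ Nonempty (↥X ≃* ↥A) ∧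
      (∀ a ∈ X, ∀ b ∈ X.map (MulAut.conj t).toMonoidHom, a * b = b * a) ∧
      X ⊓ X.map (MulAut.conj t).toMonoidHom = ⊥ ∧ X ⊔ X.map (MulAut.conj t).toMonoidHom = Cfsg.layer G ∧
      Subgroup.centralizer (A : Set G) = Subgroup.zpowers t) ∨
      (A ≤ Cfsg.layer G ∧ IsSimpleGroup ↥(Cfsg.layer G) ∧ ¬ IsMulCommutative ↥(Cfsg.layer G)) := by
  by_cases hnormal : A.Normal
  · exact Or.inl hnormal
  right
  haveI : Fact (Nat.Prime 2) := ⟨Nat.prime_two⟩
  have hO' : Cfsg.pPrimeCore 2 G = ⊥ := hO
  obtain ⟨hqs, htight, hnc, hN⟩ := id hA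
  set C := centralizer (A : Set G) with hCdef
  set E := Cfsg.layer G with hEdef
  have hCw : ∀ {w : G}, orderOf w = 2 → w ∈ C → centralizer ({w} : Set G) ≤ normalizer (A : Set G) :=
    fun hw hwC => StandardCore.centralizer_le hA hw hwC
  have hAt : A ≤ centralizer ({t} : Set G) := fun a ha =>
    mem_centralizer_singleton_iff.2 (mem_centralizer_iff.1 htA a ha)
  have hperf : ⁅A, A⁆ = A := isQuasisimple_perfect hqs
  -- a normalizing subnormal subgroup containing `A` gives a component
  have key : ∀ S : Subgroup G, S.IsSubnormal → S ≤ normalizer (A : Set G) → ¬ A ≤ S := by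
    intro S hS hSA hAS
    have hcomp : Cfsg.IsComponent A :=
      ⟨IsSubnormal.step _ S hAS hS (normal_subgroupOf_of_le_normalizer hSA), hqs⟩
    refine hnormal ⟨fun n hn g => ?_⟩
    have he : A.map (MulAut.conj g).toMonoidHom = A := by
      by_contra hne
      exact hnc g hne (comp_commute hcomp (isComponent_map_equiv hcomp (MulAut.conj g)) fun h => hne h.symm)
    exact he.le (mem_map_of_mem _ hn)
  -- `A` centralizes `O₂`
  have hQ : IsPGroup 2 ↥(Cfsg.pCore 2 G) := Components.pCore_isPGroup 2
  haveI := Cfsg.pCore_normal 2 G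
  have hAQ : ⁅A, Cfsg.pCore 2 G⁆ = ⊥ := by
    have htp : IsPGroup 2 ↥(zpowers t) := IsPGroup.of_card (n := 1) (by rw [Nat.card_zpowers, ht, pow_one])
    refine axb_perfect hQ htp le_normalizer_of_normal hperf ?_ le_normalizer_of_normal ?_
    · rw [commutator_eq_bot_iff_le_centralizer]
      intro a ha
      refine mem_centralizer_iff.2 fun x hx => ?_
      obtain ⟨i, rfl⟩ := mem_zpowers_iff.1 hx
      exact ((show Commute t a from (mem_centralizer_iff.1 htA a ha).symm).zpow_left i).eq
    · refine comm_of_not_le hqs (M := Cfsg.pCore 2 G) ?_ inf_le_left le_normalizer_of_normal ?_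
      · intro x hx
        refine hCw ht htA (mem_centralizer_singleton_iff.2 ?_)
        exact (mem_centralizer_iff.1 hx.2 t (mem_zpowers t)).symm
      · intro hle
        haveI := hQ.isNilpotent
        exact qs_not_isSolvable hqs
          (Group.isSolvable_of_isSolvable_injective (inclusion_injective hle))
  have hAF : ⁅Cfsg.fittingSubgroup G, A⁆ = ⊥ :=
    commutator_eq_bot_mono (by rwa [commutator_comm]) (LocalFusion.le_pCore_of_fitting hO') le_rfl
  have hAE : ¬ ⁅A, E⁆ = ⊥ := by
    intro h
    have h1 := le_fitting_of_centralize (H := A)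
      (fun L hL => commutator_eq_bot_mono (by rwa [commutator_comm]) (comp_le_layer hL) le_rfl) hAF
    haveI := fittingSubgroup_solvable (G := G)
    exact qs_not_isSolvable hqs (Group.isSolvable_of_isSolvable_injective (inclusion_injective h1))
  have hEN : ¬ E ≤ normalizer (A : Set G) := fun h =>
    key E (Subgroup.Normal.isSubnormal inferInstance) h
      (by_contra fun hne => hAE (comm_of_not_le hqs h le_rfl le_normalizer_of_normal hne))
  -- `O₂ = 1`
  have hQ1 : Cfsg.pCore 2 G = ⊥ := by
    by_contra hne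
    haveI : Nontrivial ↥(Cfsg.pCore 2 G) := (nontrivial_iff_ne_bot _).2 hne
    obtain ⟨⟨z, hzQ⟩, hz⟩ := exists_prime_orderOf_dvd_card' (G := ↥(Cfsg.pCore 2 G)) 2 (by
      obtain ⟨n, hn0, hn⟩ := (IsPGroup.nontrivial_iff_card hQ).1 inferInstance
      exact hn ▸ dvd_pow_self 2 hn0.ne')
    rw [orderOf_mk] at hz
    have hzC : z ∈ C := commutator_eq_bot_iff_le_centralizer.1 (by rwa [commutator_comm] at hAQ) hzQ
    refine hEN (le_trans (fun e he => mem_centralizer_singleton_iff.2 ?_) (hCw hz hzC))
    exact (mem_centralizer_iff.1 (commutator_eq_bot_iff_le_centralizer.1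
      (layer_commute_pCore (p := 2)) he) z hzQ).symm
  have hF1 : Cfsg.fittingSubgroup G = ⊥ := le_bot_iff.1 (hQ1 ▸ LocalFusion.le_pCore_of_fitting hO')
  have hCE : centralizer (E : Set G) = ⊥ := by
    have h := centralizer_gfs_le_fitting (G := G)
    rw [Cfsg.generalizedFittingSubgroup, hF1, sup_bot_eq, le_bot_iff] at h
    exact h
  -- odd subnormal subgroups are trivial
  have hoddsn : ∀ N : Subgroup G, N.IsSubnormal → Odd (Nat.card N) → N = ⊥ := fun N hN hodd =>
    le_bot_iff.1 (hO' ▸ le_pPrimeCore_of_subnormal hN (Nat.coprime_two_right.2 hodd))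
  have hEne : E ≠ ⊥ := fun h => hAE (by rw [h, commutator_bot_right])
  have hEsn : E.IsSubnormal := Subgroup.Normal.isSubnormal inferInstance
  -- `A ≤ E`
  have hAleE : A ≤ E := by
    by_contra hne
    have hcomm : ∀ X : Subgroup G, X ≤ normalizer (A : Set G) → X ≤ E → X ≤ C := fun X hX hXE =>
      commutator_eq_bot_iff_le_centralizer.1
        (by rw [commutator_comm]; exact comm_of_not_le hqs hX hXE le_normalizer_of_normal hne)
    have htN : E ⊓ centralizer ({t} : Set G) ≤ normalizer (A : Set G) := inf_le_right.trans (hCw ht htA)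
    have hse : Cfsg.IsStronglyEmbedded (C.subgroupOf E) := by
      refine ⟨fun h => ?_, ?_, fun g hg => ?_⟩
      · have hEC : E ≤ C := subgroupOf_eq_top.1 h
        refine hAE ?_
        rw [commutator_comm]
        exact commutator_eq_bot_iff_le_centralizer.2 hEC
      · obtain ⟨w, hwE, hw, hwt⟩ := exists_fixed_involution ht (le_normalizer_of_normal (mem_top t))
          (Nat.not_odd_iff_even.1 fun h => hEne (hoddsn E hEsn h))
        have hwC : w ∈ C := hcomm _ htN inf_le_left ⟨hwE, mem_centralizer_singleton_iff.2 hwt⟩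
        have hd := Subgroup.orderOf_dvd_natCard (C.subgroupOf E) (x := (⟨w, hwE⟩ : ↥E)) hwC
        rw [orderOf_mk, hw] at hd
        exact even_iff_two_dvd.2 hd
      · have hgN : (g : G) ∉ normalizer (C : Set G) := fun h => hg (by
          rw [← hN] at h
          exact hcomm (E ⊓ normalizer (A : Set G)) inf_le_right inf_le_left ⟨g.2, h⟩)
        refine Odd.of_dvd_nat (htight.2 _ hgN) ?_
        rw [← card_map_of_injective E.subtype_injective]
        refine card_dvd_of_le ?_
        rintro _ ⟨x, ⟨hx1, y, hy, rfl⟩, rfl⟩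
        exact ⟨hx1, y, hy, rfl⟩
    have hodd : ∀ N : Subgroup ↥E, N.Normal → Odd (Nat.card N) → N = ⊥ := fun N hN hNo => by
      have h1 := hoddsn (N.map E.subtype) (hN.isSubnormal.trans' hEsn)
        (by rwa [card_map_of_injective E.subtype_injective])
      exact (map_eq_bot_iff_of_injective N E.subtype_injective).1 h1
    obtain ⟨u, huH, hu⟩ := exists_fixed_outside (H := C.subgroupOf E) (A := ↥A)
      (Group.isPerfect_def.1 hqs.1) ((MulAut.conjNormal (H := E)).comp A.subtype) hse hodd (fun a h hh => by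
        apply Subtype.ext
        show (MulAut.conjNormal (a : G) h : G) = h
        rw [MulAut.conjNormal_apply, mem_centralizer_iff.1 (mem_subgroupOf.1 hh) a a.2, mul_inv_cancel_right])
    refine huH (mem_subgroupOf.2 (mem_centralizer_iff.2 fun a ha => ?_))
    have h1 : (MulAut.conjNormal a u : G) = (u : G) := congrArg Subtype.val (hu ⟨a, ha⟩)
    rw [MulAut.conjNormal_apply] at h1
    exact mul_inv_eq_iff_eq_mul.1 h1
  -- the orbit of a component
  let conjT : Subgroup G → Subgroup G := fun K => K.map (MulAut.conj t).toMonoidHom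
  have hcT : ∀ K, conjT (conjT K) = K := fun K => by
    show (K.map _).map _ = K
    rw [map_conj_map_conj, Involution.mul_self ht, map_conj_one]
  have hcomp' : ∀ {K}, Cfsg.IsComponent K → Cfsg.IsComponent (conjT K) := fun hK =>
    isComponent_map_equiv hK (MulAut.conj t)
  have horb : ∀ {K}, Cfsg.IsComponent K → A ≤ K ⊔ conjT K := by
    intro K hK
    set M := K ⊔ conjT K with hM
    have hME : M ≤ E := sup_le (comp_le_layer hK) (comp_le_layer (hcomp' hK))
    have hEM : E ≤ normalizer (M : Set G) :=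
      (le_inf (comp_normal_in_layer hK) (comp_normal_in_layer (hcomp' hK))).trans fun x hx =>
        mem_normalizer_of_map_conj_eq (by
          rw [hM, Subgroup.map_sup, map_conj_eq_of_mem_normalizer hx.1, map_conj_eq_of_mem_normalizer hx.2])
    by_contra hne
    have hAM : A ≤ normalizer (M : Set G) := hAleE.trans hEM
    have htM : t ∈ normalizer (M : Set G) := mem_normalizer_of_map_conj_eq (by
      rw [hM, Subgroup.map_sup]
      show conjT K ⊔ conjT (conjT K) = _
      rw [hcT, sup_comm])
    have hMeven : Even (Nat.card M) := even_iff_two_dvd.2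
      ((comp_dvd_card (p := 2) hO' hK).trans (card_dvd_of_le le_sup_left))
    obtain ⟨w, hwM, hw, hwt⟩ := exists_fixed_involution ht htM hMeven
    have hwC : w ∈ C := commutator_eq_bot_iff_le_centralizer.1
      (by rw [commutator_comm]; exact comm_of_not_le hqs (X := M ⊓ centralizer ({t} : Set G))
            (inf_le_right.trans (hCw ht htA)) inf_le_left hAM hne)
      (mem_inf.2 ⟨hwM, mem_centralizer_singleton_iff.2 hwt⟩)
    set M' := sSup {L : Subgroup G | Cfsg.IsComponent L ∧ L ≠ K ∧ L ≠ conjT K} with hM'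
    have hMM' : ⁅M', M⁆ = ⊥ := commutator_sSup_eq_bot fun L hL => by
      rw [commutator_eq_bot_iff_le_centralizer, le_centralizer_iff]
      exact sup_le (le_centralizer_iff.1 (commutator_eq_bot_iff_le_centralizer.1 (comp_commute hL.1 hK hL.2.1)))
        (le_centralizer_iff.1 (commutator_eq_bot_iff_le_centralizer.1 (comp_commute hL.1 (hcomp' hK) hL.2.2)))
    have hM'N : M' ≤ normalizer (A : Set G) := fun x hx => hCw hw hwC (mem_centralizer_singleton_iff.2
      (mem_centralizer_iff.1 (commutator_eq_bot_iff_le_centralizer.1 hMM' hx) w hwM).symm)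
    have hM'E : M' ≤ E := sSup_le fun L hL => comp_le_layer hL.1
    have hcov : E ≤ M ⊔ M' := layer_le_iff.2 fun L hL => by
      by_cases h1 : L = K
      · exact h1 ▸ le_sup_of_le_left le_sup_left
      by_cases h2 : L = conjT K
      · exact h2 ▸ le_sup_of_le_left le_sup_right
      exact le_sup_of_le_right (le_sSup ⟨hL, h1, h2⟩)
    have hM'n : E ≤ normalizer (M' : Set G) :=
      hcov.trans (sup_le ((commutator_eq_bot_iff_le_centralizer.1 (by rw [commutator_comm]; exact hMM')).trans
        (Components.centralizer_le_normalizer _)) le_normalizer)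
    by_cases hAM' : A ≤ M'
    · exact key M' (IsSubnormal.step _ E hM'E hEsn (normal_subgroupOf_of_le_normalizer hM'n)) hM'N hAM'
    have hc := commutator_eq_bot_iff_le_centralizer.1
      (comm_of_not_le hqs hM'N le_rfl (hAleE.trans hM'n) hAM')
    refine hne fun a ha => ?_
    have hdec := hcov (hAleE ha)
    rw [← SetLike.mem_coe, coe_mul_of_left_le_normalizer_right M M' (hME.trans hM'n)] at hdec
    obtain ⟨m, hm, m', hm', rfl⟩ := hdec
    suffices h : m' = 1 by simpa [h] using hm
    rw [← mem_bot, ← hCE]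
    refine (le_centralizer_iff.1 (hcov.trans (sup_le ?_ ?_))) (mem_zpowers m')
    · refine le_centralizer_iff.1 (zpowers_le.2 ?_)
      exact commutator_eq_bot_iff_le_centralizer.1 hMM' hm'
    · refine le_centralizer_iff.1 (zpowers_le.2 ?_)
      have h1 : m * m' ∈ centralizer (M' : Set G) := hc ha
      have h2 : m ∈ centralizer (M' : Set G) :=
        commutator_eq_bot_iff_le_centralizer.1 (by rw [commutator_comm]; exact hMM') hm
      simpa using mul_mem (inv_mem h2) h1
  obtain ⟨K, hK⟩ : ∃ K, Cfsg.IsComponent K := by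
    by_contra h
    push Not at h
    exact hEne (layer_eq_bot_iff.2 h)
  set K' := conjT K with hK'def
  have hK' : Cfsg.IsComponent K' := hcomp' hK
  have hall : ∀ L, Cfsg.IsComponent L → L = K ∨ L = K' := by
    intro L hL
    by_contra h
    push Not at h
    have hL1 : conjT L ≠ K := fun e => h.2 (by rw [hK'def, ← e, hcT])
    have hL2 : conjT L ≠ K' := fun e => h.1 (by rw [← hcT L, e, hK'def, hcT])
    have h0 : ⁅L ⊔ conjT L, K ⊔ K'⁆ = ⊥ := by
      rw [commutator_eq_bot_iff_le_centralizer]
      refine sup_le ?_ ?_ <;> rw [le_centralizer_iff] <;>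
        refine sup_le ?_ ?_ <;> refine le_centralizer_iff.1 (commutator_eq_bot_iff_le_centralizer.1 ?_)
      exacts [comp_commute hL hK h.1, comp_commute hL hK' h.2,
        comp_commute (hcomp' hL) hK hL1, comp_commute (hcomp' hL) hK' hL2]
    exact qs_commutator_ne_bot hqs (commutator_eq_bot_mono h0 (horb hL) (horb hK))
  have hEK : E = K ⊔ K' := by
    refine le_antisymm (layer_le_iff.2 fun L hL => ?_) (sup_le (comp_le_layer hK) (comp_le_layer hK'))
    rcases hall L hL with h | h
    · exact h ▸ le_sup_left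
    · exact h ▸ le_sup_right
  -- components are simple
  have hsimple : IsSimpleGroup ↥K ∧ ¬ IsMulCommutative ↥K := by
    have hZ : center ↥K = ⊥ := by
      have h1 : (center ↥K).map K.subtype ≤ Cfsg.fittingSubgroup G :=
        le_fittingSubgroup_of_subnormal ((inferInstance : (center ↥K).Normal).isSubnormal.trans' hK.1)
          (open scoped IsMulCommutative in
            Group.nilpotent_of_surjective (K.subtype.subgroupMap _) (K.subtype.subgroupMap_surjective _))
      rw [hF1, le_bot_iff] at h1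
      exact (map_eq_bot_iff_of_injective _ K.subtype_injective).1 h1
    haveI := hK.2.2
    let e := (QuotientGroup.quotientMulEquivOfEq hZ).trans QuotientGroup.quotientBot
    refine ⟨e.symm.isSimpleGroup, fun h => qs_quotient_not_commutative hK.2 ?_⟩
    exact ⟨⟨fun a b => e.injective (by rw [map_mul, map_mul]; exact h.is_comm.comm _ _)⟩⟩
  by_cases hKK : K' = K
  · right
    rw [hKK, sup_idem] at hEK
    exact ⟨hAleE, by rw [hEK]; exact hsimple.1, by rw [hEK]; exact hsimple.2⟩
  left
  have hKc : ∀ a ∈ K, ∀ b ∈ K', a * b = b * a := fun a ha b hb =>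
    (mem_centralizer_iff.1 (commutator_eq_bot_iff_le_centralizer.1
      (comp_commute hK hK' (fun e => hKK e.symm)) ha) b hb).symm
  have hinf : K ⊓ K' = ⊥ := by
    rw [eq_bot_iff, ← hCE]
    intro x hx
    refine (le_centralizer_iff.1 (hEK.le.trans (sup_le ?_ ?_))) (mem_zpowers x)
    · exact le_centralizer_iff.1 (zpowers_le.2 (mem_centralizer_iff.2 fun k hk => hKc k hk x hx.2))
    · exact le_centralizer_iff.1 (zpowers_le.2 (mem_centralizer_iff.2 fun k hk => (hKc x hx.1 k hk).symm))
  have huniq : ∀ {a b c d : G}, a ∈ K → c ∈ K → b ∈ K' → d ∈ K' → a * b = c * d → a = c ∧ b = d := by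
    intro a b c d ha hc hb hd he
    have h1 : c⁻¹ * a = d * b⁻¹ := by
      calc c⁻¹ * a = c⁻¹ * (a * b) * b⁻¹ := by group
        _ = d * b⁻¹ := by rw [he]; group
    have h2 : c⁻¹ * a ∈ K ⊓ K' := mem_inf.2 ⟨K.mul_mem (K.inv_mem hc) ha, h1 ▸ K'.mul_mem hd (K'.inv_mem hb)⟩
    rw [hinf, mem_bot, inv_mul_eq_one] at h2
    subst h2
    exact ⟨rfl, mul_left_cancel he⟩
  have htK : ∀ {k}, k ∈ K → t * k * t⁻¹ ∈ K' := fun hk => ⟨_, hk, rfl⟩
  have htt : ∀ x : G, t * (t * x * t⁻¹) * t⁻¹ = x := fun x => by
    rw [Involution.inv_self ht]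
    calc t * (t * x * t) * t = (t * t) * x * (t * t) := by group
      _ = x := by rw [Involution.mul_self ht, one_mul, mul_one]
  have htK' : ∀ {k}, k ∈ K' → t * k * t⁻¹ ∈ K := by
    intro k hk
    obtain ⟨y, hy, rfl⟩ := hk
    show t * (t * y * t⁻¹) * t⁻¹ ∈ K
    rw [htt]; exact hy
  let π : ↥K →* G :=
    { toFun := fun k => (k : G) * (t * (k : G) * t⁻¹)
      map_one' := by simp
      map_mul' := fun a b => by
        show ((a : G) * b) * (t * ((a : G) * b) * t⁻¹) = _
        have h := hKc b b.2 _ (htK a.2)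
        calc (a : G) * b * (t * ((a : G) * b) * t⁻¹)
            = a * (b * (t * a * t⁻¹)) * (t * b * t⁻¹) := by group
          _ = a * ((t * a * t⁻¹) * b) * (t * b * t⁻¹) := by rw [h]
          _ = _ := by group }
  have hπinj : Function.Injective π := fun a b h =>
    Subtype.ext (huniq a.2 b.2 (htK a.2) (htK b.2) h).1
  have hAπ : A ≤ π.range := by
    intro a ha
    have h := hEK.le (hAleE ha)
    rw [← SetLike.mem_coe, coe_mul_of_left_le_normalizer_right K K'
      ((commutator_eq_bot_iff_le_centralizer.1 (comp_commute hK hK' (fun e => hKK e.symm))).trans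
        (Components.centralizer_le_normalizer _))] at h
    obtain ⟨k, hk, l, hl, rfl⟩ := h
    have hfix : t * (k * l) * t⁻¹ = k * l := by
      rw [← mem_centralizer_singleton_iff.1 (hAt ha), mul_inv_cancel_right]
    have h2 : t * l * t⁻¹ * (t * k * t⁻¹) = k * l := by
      rw [hKc _ (htK' hl) _ (htK hk)]
      exact Eq.trans (by group) hfix
    exact ⟨⟨k, hk⟩, by
      show k * (t * k * t⁻¹) = k * l
      rw [(huniq (htK' hl) hk (htK hk) hl h2).2]⟩
  have hπA : π.range ≤ A := by
    haveI := hsimple.1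
    have hπN : π.range ≤ normalizer (A : Set G) := by
      refine le_trans ?_ (hCw ht htA)
      rintro _ ⟨k, rfl⟩
      refine mem_centralizer_singleton_iff.2 ?_
      show (k : G) * (t * k * t⁻¹) * t = t * ((k : G) * (t * k * t⁻¹))
      have h := hKc k k.2 _ (htK k.2)
      rw [Involution.inv_self ht] at h ⊢
      have htt1 := Involution.mul_self ht
      calc (k : G) * (t * k * t) * t = k * t * k * (t * t) := by group
        _ = (t * t) * k * t * k := by rw [htt1, mul_one, one_mul]
        _ = t * ((t * k * t) * k) := by group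
        _ = t * ((k : G) * (t * k * t)) := by rw [← h]
    have hn : (A.comap π).Normal := ⟨fun n hn g => by
      show π (g * n * g⁻¹) ∈ A
      rw [map_mul, map_mul, map_inv]
      exact (mem_normalizer_iff.1 (hπN ⟨g, rfl⟩) _).1 hn⟩
    rcases hn.eq_bot_or_eq_top with h | h
    · exfalso
      refine qs_ne_bot hqs ((Subgroup.eq_bot_iff_forall A).2 fun a ha => ?_)
      obtain ⟨k, rfl⟩ := hAπ ha
      have : k ∈ A.comap π := ha
      rw [h, mem_bot] at this
      rw [this, map_one]
    · rintro _ ⟨k, rfl⟩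
      exact (show k ∈ A.comap π from h ▸ mem_top k)
  refine ⟨K, hsimple.1, hsimple.2,
    ⟨(MonoidHom.ofInjective hπinj).trans (MulEquiv.subgroupCongr (le_antisymm hπA hAπ))⟩,
    hKc, hinf, hEK.symm, le_antisymm ?_ (zpowers_le.2 htA)⟩
  -- the centralizer
  have hfixK : ∀ c ∈ C, K.map (MulAut.conj c).toMonoidHom = K → c = 1 := by
    intro c hc hcK
    have hc' : K'.map (MulAut.conj c).toMonoidHom = K' := by
      rcases hall _ (isComponent_map_equiv hK' (MulAut.conj c)) with h | h
      · exact absurd (map_injective (MulAut.conj c).injective (h.trans hcK.symm)) hKK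
      · exact h
    have hk : ∀ k ∈ K, c * k * c⁻¹ = k ∧ c * (t * k * t⁻¹) * c⁻¹ = t * k * t⁻¹ := by
      intro k hk
      have h1 := mem_centralizer_iff.1 hc _ (hπA ⟨⟨k, hk⟩, rfl⟩)
      refine huniq (hcK.le ⟨k, hk, rfl⟩) hk (hc'.le ⟨_, htK hk, rfl⟩) (htK hk) ?_
      calc c * k * c⁻¹ * (c * (t * k * t⁻¹) * c⁻¹) = c * π ⟨k, hk⟩ * c⁻¹ := by
            show _ = c * (k * (t * k * t⁻¹)) * c⁻¹
            group
        _ = π ⟨k, hk⟩ := by rw [← h1, mul_inv_cancel_right]
    rw [← mem_bot, ← hCE]
    refine (le_centralizer_iff.1 (hEK.le.trans (sup_le ?_ ?_))) (mem_zpowers c)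
    · refine le_centralizer_iff.1 (zpowers_le.2 (mem_centralizer_iff.2 fun k hk' => ?_))
      exact (mul_inv_eq_iff_eq_mul.1 (hk k hk').1).symm
    · refine le_centralizer_iff.1 (zpowers_le.2 (mem_centralizer_iff.2 fun k hk' => ?_))
      have h2 := (hk _ (htK' hk')).2
      rw [htt] at h2
      exact (mul_inv_eq_iff_eq_mul.1 h2).symm
  intro c hc
  rcases hall _ (isComponent_map_equiv hK (MulAut.conj c)) with h | h
  · rw [hfixK c hc h]; exact one_mem _
  · have h1 : K.map (MulAut.conj (t * c)).toMonoidHom = K := by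
      rw [← map_conj_map_conj, h]; exact hcT K
    have h2 := hfixK _ (mul_mem htA hc) h1
    rw [eq_inv_of_mul_eq_one_right h2]
    exact inv_mem (mem_zpowers t)

end Cfsg.Agent.Lib.StdSub
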